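import Cfsg.Agent.Lib.ToddCox.SP44C4.Data0
set_option autoImplicit false
set_option maxRecDepth 100000
namespace Cfsg.Agent.Lib.ToddCox.SP44C4
def eT (j : ℕ) : ℕ := E_0
noncomputable def chunkF (h : ℕ) : ℕ := Nat.rec (motive := fun _ => ℕ) (eT 0) (fun n _ => eT (Nat.succ n)) h
noncomputable def Eo (r : ℕ) : ℕ := Nat.land (Nat.shiftRight (chunkF (Nat.shiftRight r 8)) (Nat.mul (Nat.land r 255) 54)) 18014398509481983
def invT : ℕ := 0xffef7cefae78df6d74cf2c70beeb6caeaa689e69648e28607de75c6da6585d65544d24503ce34c2ca2481c61440c2040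
def inv (y : ℕ) : ℕ := invOf invT y
def Wt_1_3 (j : ℕ) : List ℕ := bif Nat.blt j 2 then [nat_lit 1, nat_lit 3, nat_lit 1, nat_lit 3] else [nat_lit 2, nat_lit 3, nat_lit 2, nat_lit 3]
def Wt_0_3 (j : ℕ) : List ℕ := bif Nat.blt j 1 then [nat_lit 0, nat_lit 3, nat_lit 0, nat_lit 3] else (Wt_1_3 j)
def Wt (j : ℕ) : List ℕ := (Wt_0_3 j)
def W (j : ℕ) : List ℕ := bif Nat.blt j 3 then Wt j else []
theorem W_ge (j : ℕ) (h : 3 ≤ j) : W j = [] := by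
  unfold W
  rw [blt_false_of_le h]
  rfl
def Hl : List ℕ := [nat_lit 0, nat_lit 1, nat_lit 2]
def isH (y : ℕ) : Bool := List.elem y Hl
def Rb : List (List ℕ) := [[nat_lit 0, nat_lit 0],
  [nat_lit 1, nat_lit 1],
  [nat_lit 1, nat_lit 0, nat_lit 1, nat_lit 0, nat_lit 1, nat_lit 0],
  [nat_lit 2, nat_lit 2],
  [nat_lit 2, nat_lit 1, nat_lit 2, nat_lit 1, nat_lit 2, nat_lit 1, nat_lit 2, nat_lit 1, nat_lit 2, nat_lit 1],
  [nat_lit 2, nat_lit 1, nat_lit 0, nat_lit 2, nat_lit 1, nat_lit 0, nat_lit 2, nat_lit 1, nat_lit 2, nat_lit 0, nat_lit 1, nat_lit 2, nat_lit 0, nat_lit 1, nat_lit 0],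
  [nat_lit 3, nat_lit 3],
  [nat_lit 3, nat_lit 0, nat_lit 3, nat_lit 0],
  [nat_lit 3, nat_lit 1, nat_lit 3, nat_lit 1],
  [nat_lit 3, nat_lit 2, nat_lit 3, nat_lit 2],
  []]
def spT (j : ℕ) : ℕ := nat_lit 0x12000000100000000e
def sp (j : ℕ) : ℕ := Nat.land (Nat.shiftRight (spT (Nat.shiftRight j 6)) (Nat.mul (Nat.land j 63) 32)) 4294967295
theorem Eo_lt (r : ℕ) : Eo r < 18014398509481984 := land54_lt _
def cT (j : ℕ) : ℕ := nat_lit 0x1000000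
noncomputable def cChunk (h : ℕ) : ℕ := Nat.rec (motive := fun _ => ℕ) (cT 0) (fun n _ => cT (Nat.succ n)) h
noncomputable def cF (i : ℕ) : ℕ := Nat.land (Nat.shiftRight (cChunk (Nat.shiftRight i 7)) (Nat.mul (Nat.land i 127) 24)) 16777215
theorem cF_lt (i : ℕ) : cF i < 16777216 := land24_lt _
theorem cF_zero : cF 0 = 0 := by decide +kernel
def nDef : ℕ := 1
def nEv : ℕ := 7
def nW : ℕ := 3
def N : ℕ := 2
def ys : List ℕ := [nat_lit 0, nat_lit 1, nat_lit 2, nat_lit 3]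
def Js : List ℕ := [nat_lit 0, nat_lit 1, nat_lit 2, nat_lit 3]
def Jp : List ℕ := [nat_lit 0, nat_lit 1, nat_lit 2]
end Cfsg.Agent.Lib.ToddCox.SP44C4
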