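import Cfsg.Agent.Lib.ToddCox.SP44C4.Data
set_option autoImplicit false
set_option maxRecDepth 100000
namespace Cfsg.Agent.Lib.ToddCox.SP44C4
theorem wordsGood : allBelow (wordsOK W (relR Rb inv) inv sp) nW 2 = true := by decide +kernel
theorem d0 : allBits (fun k => bif Nat.blt k 1 then chkDef Eo inv k else true) 13 0 = true := by decide +kernel
theorem s0 : chkStream Eo inv W isH 6 1 0xe000001000001000000000000a00000100000080000000000060000010000007ffffffffffffffffff = true := by decide +kernel
theorem c0 : Covered Eo inv W isH 1 7 := covered_of_stream 6 1 _ s0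
theorem l0 : chkPoints Eo cF (2 * nEv) N ys 2 0 0x800000000001a0000010000058000004000012000001000000000000400000c0000000000020000000000004000000 = true := by decide +kernel
theorem k0 : LinksOK Eo cF (2 * nEv) N ys 0 2 := linksOK_of_points 2 0 _ l0
end Cfsg.Agent.Lib.ToddCox.SP44C4
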